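import Cfsg.Agent.ChevTw.D4Torus.Centralizer

/-!
The torus of order `(q³ - 1)(q + 1)` of ³D₄(q) is self-centralizing (owner: helper86).
-/

set_option autoImplicit false
set_option linter.unusedSimpArgs false

namespace Cfsg.Agent.ChevTw.D4Torus

open Cfsg.Lie Cfsg.Agent.ChevGrp Cfsg.Agent.Chev Cfsg.Agent.ChevTw

variable {K : Type*} [Field K] [Fintype K] {q : ℕ} (hq : IsPrimePow q) (hK : Fintype.card K = q ^ 3)

/-- The conclusion about the Bruhat parts. -/
def TopShape (g : GL chevD4.Idx K) : Prop :=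
  ∃ (a b : K) (h v : GL chevD4.Idx K) (w : List (Fin chevD4.rank)),
    h ∈ (sysD4 K).Hbar ∧ v ∈ (sysD4 K).US (invSet chevD4 w) ∧ v = xGL chevD4 K 23 b ∧
      g = xGL chevD4 K 23 a * h * (sysD4 K).nW w * v ∧ (twistD4 hq hK).Comm w ∧
      (twistD4 hq hK).sig v = v ∧ act chevD4 w 18 = 18 ∧ (act chevD4 w 19 = 19 ∨ act chevD4 w 19 = 6)

theorem topShape_of_large (h3 : 3 ≤ q) {g : GL chevD4.Idx K} (hg : g ∈ twistedD4 K q)
    (hc : ∀ s : Kˣ, Commute (sigS q s) g) : TopShape hq hK g := by
  obtain ⟨u, h, v, w, hu, hh, hv, e, hwc, hvf, -, hcm, hchar⟩ := bruhat_parts hq hK hg hc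
  obtain ⟨s0, hs0⟩ := exists_gen (K := K) hK (by omega)
  obtain ⟨huniq, e18, e19⟩ := eD4_unique
  have hq3 : (3 : ℤ) ≤ (q : ℤ) := by omega
  have supp : ∀ x : GL chevD4.Idx K, x ∈ (sysD4 K).Ubar → (∀ s, Commute (sigS q s) x) →
      ∃ a : K, x = xGL chevD4 K 23 a := by
    intro x hx hxc
    obtain ⟨t, ht'⟩ := Ubar_support q hx hxc (L := [23]) (List.nodup_singleton _)
      (fun r hr => by rw [List.mem_singleton.1 hr]; exact tablesD4.2.2.1)
      (fun r hr s hs hne => absurd ((List.mem_singleton.1 hs).trans (List.mem_singleton.1 hr).symm) hne)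
      (fun r hr hs => by
        rw [List.mem_singleton]
        refine (huniq r hr.1).2.2 hr (cong_eq hq3 hr.1 (by simp [targets]) ?_)
        have := hs0 (expD4 (q : ℤ) r) 0 (by rw [hs, zpow_zero])
        simpa [evQ] using this)
    refine ⟨t 23, ht'.trans ?_⟩
    rw [Sys.P_cons, Sys.P_nil, mul_one]
    rfl
  obtain ⟨a, rfl⟩ := supp u hu fun s => (hcm s).1
  obtain ⟨b, hb⟩ := supp v ((sysD4 K).US_mono (fun r hr => hr.1) hv) fun s => (hcm s).2.1
  refine ⟨a, b, h, v, w, hh, hv, hb, e, hwc, hvf, ?_, ?_⟩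
  · have hlt := (rootD4 K).act_lt w (show 18 < chevD4.nroots by decide)
    refine (huniq _ hlt).1 (cong_eq hq3 hlt (by simp [targets]) ?_)
    have := hs0 _ _ (hchar 18 (by decide) s0)
    simp only [expD4, e18] at this
    exact this
  · have hlt := (rootD4 K).act_lt w (show 19 < chevD4.nroots by decide)
    refine (huniq _ hlt).2.1 (cong_eq hq3 hlt (by simp [targets]) ?_)
    have := hs0 _ _ (hchar 19 (by decide) s0)
    simp only [expD4, e19] at this
    exact this

theorem topShape_of_two (h2 : q = 2) {E : Type*} [Field E] [Algebra (FF hq hK) E]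
    (bE : Module.Basis (Fin 2) (FF hq hK) E) {g : GL chevD4.Idx K} (hg : g ∈ twistedD4 K q)
    (hc : ∀ s : Kˣ, Commute (sigS q s) g)
    (hC : ∀ e : Eˣ, Commute g (psiF hq hK (reg hq hK bE e))) : TopShape hq hK g := by
  obtain ⟨u, h, v, w, hu, hh, hv, e, hwc, hvf, -, hcm, hchar⟩ := bruhat_parts hq hK hg hc
  obtain ⟨s0, hs0⟩ := exists_gen (K := K) hK hq.one_lt
  have h7 : ∀ a b : ℤ, s0 ^ a = s0 ^ b → (7 : ℤ) ∣ a - b := by
    intro a b hab
    have := hs0 a b hab
    rw [h2] at this
    simpa using this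
  have hqz : (q : ℤ) = 2 := by rw [h2]; rfl
  set S := sysD4 K
  have hS := rulesD4 K
  have hR := rootD4 K
  have char2 : (2 : K) = 0 := by
    have h8 := Nat.cast_card_eq_zero (R := K)
    rw [hK, h2] at h8
    push_cast at h8
    have h : (2 : K) ^ 3 = 0 := by rw [← h8]; norm_num
    exact (pow_eq_zero_iff (n := 3) (by norm_num)).1 h
  have hneg : ∀ t : K, -t = t := fun t => by linear_combination (-t) * char2
  -- the torus is diagonal and separates the block from the other coordinates
  have entry0 : ∀ x : GL chevD4.Idx K, Commute (sigS q s0) x → ∀ (i : Fin 3) (c : chevD4.Idx),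
      c ∉ Set.range idxB → (x : Matrix chevD4.Idx chevD4.Idx K) (idxB i) c = 0 := by
    intro x hx i c hc'
    have hm := congrArg S.mat hx.eq
    rw [S.mat_mul, S.mat_mul, show S.mat (sigS q s0) = _ from
      S.mat_tau hS hR (glSys_HMul hS hR) (sMap q s0)] at hm
    have h1 := congrFun (congrFun hm (idxB i)) c
    rw [Matrix.diagonal_mul, Matrix.mul_diagonal, glSys_mat] at h1
    by_contra hne
    rw [mul_comm] at h1
    have h2' := mul_left_cancel₀ hne h1
    simp only [idxB, Sum.elim_inr, prod_cartan, chi_sMap, hqz] at h2'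
    rcases c with c | c
    · rw [Sum.elim_inl, Units.val_eq_one] at h2'
      have := h7 (expD4 2 (rt i)) 0 (by rw [zpow_zero]; exact h2')
      exact (show ∀ i : Fin 3, ¬ (7 : ℤ) ∣ expD4 2 (rt i) - 0 by decide +kernel) i this
    · rw [Sum.elim_inr] at h2'
      have := h7 _ _ (Units.ext h2').symm
      have hmem : c.val = 18 ∨ c.val = 19 ∨ c.val = 6 := by
        obtain ⟨t18, -, t19, t6⟩ := two_classes c c.2
        fin_cases i
        · exact t19.1 this
        · exact t18.1 this
        · exact t6.1 this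
      obtain ⟨j, hj⟩ := exists_rt c c.2 hmem
      exact hc' ⟨j, congrArg Sum.inr (Fin.ext hj)⟩
  have blk_mul : ∀ x y : GL chevD4.Idx K, Commute (sigS q s0) x → blk (x * y) = blk x * blk y := by
    intro x y hx
    ext i j
    simp only [blk, Matrix.submatrix_apply, Units.val_mul, Matrix.mul_apply]
    exact (Fintype.sum_of_injective idxB idxB_inj _ _
      (fun c hc' => by rw [entry0 x hx i c hc', zero_mul]) fun _ => rfl).symm
  -- the unipotent parts
  have supp : ∀ x : GL chevD4.Idx K, x ∈ S.Ubar → (∀ s, Commute (sigS q s) x) → ∃ a b c : K,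
      x = xGL chevD4 K 14 a * (xGL chevD4 K 22 b * xGL chevD4 K 23 c) ∧
        blk x = !![1, a, -c + a * -b; 0, 1, -b; 0, 0, 1] := by
    intro x hx hxc
    obtain ⟨t, ht'⟩ := Ubar_support q hx hxc (L := [14, 22, 23]) (by simp) small_pos small_closed
      (fun r hr hs => by
        have := h7 (expD4 (q : ℤ) r) 0 (by rw [hs, zpow_zero])
        rw [sub_zero, hqz] at this
        rcases (two_classes r hr.1).2.1 hr this with h' | h' | h' <;> simp [h'])
    have ht'' : x = xGL chevD4 K 14 (t 14) * (xGL chevD4 K 22 (t 22) * xGL chevD4 K 23 (t 23)) := by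
      refine ht'.trans ?_
      simp only [Sys.P_cons, Sys.P_nil, mul_one]
      rfl
    refine ⟨t 14, t 22, t 23, ht'', ?_⟩
    have cm : ∀ r ∈ [14, 22, 23], ∀ y : K, Commute (sigS q s0) (xGL chevD4 K r y) := by
      intro r hr y
      refine sigS_commute_x q s0 (small_pos r hr).1 ?_ y
      have h70 : s0 ^ (7 : ℤ) = 1 := by
        have hcard : Nat.card Kˣ = 7 := by
          rw [Nat.card_units, Nat.card_eq_fintype_card, hK, h2]
          rfl
        rw [zpow_ofNat, ← hcard, pow_card_eq_one']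
      obtain ⟨k, hk⟩ : (7 : ℤ) ∣ expD4 (q : ℤ) r := by
        rw [hqz]
        revert r
        decide +kernel
      rw [hk, zpow_mul, h70, one_zpow]
    rw [ht'', blk_mul _ _ (cm 14 (by simp) _), blk_mul _ _ (cm 22 (by simp) _), blk_x14, blk_x22, blk_x23]
    ext i j
    fin_cases i <;> fin_cases j <;> simp [Matrix.mul_apply, Fin.sum_univ_three]
  obtain ⟨a0, a1, a2, hua, hub⟩ := supp u hu fun s => (hcm s).1
  obtain ⟨c0, c1, c2, hva, hvb⟩ := supp v (S.US_mono (fun r hr => hr.1) hv) fun s => (hcm s).2.1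
  -- the monomial part
  have hmemB : ∀ i : Fin 3, ∃ j, rt j = act chevD4 w (rt i) := by
    intro i
    have hlt := hR.act_lt w (rt_lt i)
    refine exists_rt _ hlt ?_
    have := h7 _ _ (hchar (rt i) (rt_lt i) s0)
    rw [hqz] at this
    obtain ⟨t18, -, t19, t6⟩ := two_classes _ hlt
    fin_cases i
    · exact t19.1 this
    · exact t18.1 this
    · exact t6.1 this
  choose p hp using hmemB
  have hpinj : Function.Injective p := fun i j hij => rt_inj
    (hR.act_inj w (rt_lt i) (rt_lt j) (by rw [← hp i, ← hp j, hij]))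
  obtain ⟨c, rfl⟩ := exists_torD4 hh
  obtain ⟨cw, hcw, ew⟩ := S.mat_nW hS hR w
  set m : Fin 3 → K := fun j => ((chiD4 K c (rt (p j)) : Kˣ) : K) * cw ⟨rt j, rt_lt j⟩
  have hN : blk (torD4 K c * S.nW w) = Matrix.of fun i j => if i = p j then m j else 0 := by
    ext i j
    show ((torD4 K c * S.nW w : GL chevD4.Idx K) : Matrix chevD4.Idx chevD4.Idx K) (idxB i) (idxB j) = _
    rw [Units.val_mul, ← glSys_mat hS, ← glSys_mat hS,
      show S.mat (torD4 K c) = _ from S.mat_tau hS hR (glSys_HMul hS hR) c, Matrix.diagonal_mul]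
    simp only [idxB, Sum.elim_inr, prod_cartan, Matrix.of_apply]
    rw [ew]
    by_cases hij : i = p j
    · rw [if_pos (by subst hij; exact congrArg Sum.inr (Fin.ext (hp j))), if_pos hij, hij]
    · rw [if_neg (fun e' => hij (rt_inj ((congrArg Fin.val (Sum.inr.inj e')).trans (hp j).symm))),
        if_neg hij, mul_zero]
  have hA : blk g = !![1, a0, -a2 + a0 * -a1; 0, 1, -a1; 0, 0, 1] *
      (Matrix.of fun i j => if i = p j then m j else 0) * !![1, c0, -c2 + c0 * -c1; 0, 1, -c1; 0, 0, 1] := by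
    rw [e, mul_assoc u, blk_mul _ _ ((hcm s0).1.mul_right (hcm s0).2.2), blk_mul _ _ (hcm s0).1, hub, hN,
      hvb]
  -- the torus of the small linear group
  have hpsi : ∀ y : Matrix.SpecialLinearGroup (Fin 2) K,
      blk (phi K y) = !![y.1 0 0, 0, y.1 0 1; 0, 1, 0; y.1 1 0, 0, y.1 1 1] := by
    intro y
    refine sl2_induction (P := {
      carrier := {y | blk (phi K y) = !![y.1 0 0, 0, y.1 0 1; 0, 1, 0; y.1 1 0, 0, y.1 1 1]}
      one_mem' := by
        show blk (phi K 1) = _
        rw [map_one, blk_one]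
        ext i j
        fin_cases i <;> fin_cases j <;> simp
      mul_mem' := fun {y z} hy hz => by
        show blk (phi K (y * z)) = _
        rw [map_mul, blk_mul _ _ (torD4_commute_phi _ rfl y)]
        rw [Set.mem_setOf_eq] at hy hz
        rw [hy, hz, RankOne.sl_mul_val]
        ext i j
        fin_cases i <;> fin_cases j <;> simp [Matrix.mul_apply, Fin.sum_univ_three, Fin.sum_univ_two] })
      (fun t => ?_) (fun t => ?_) y
    · show blk (phi K (RankOne.upper t)) = _
      rw [phi_upper, blk_x23, hneg]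
      ext i j
      fin_cases i <;> fin_cases j <;> simp [RankOne.upper]
    · show blk (phi K (lower t)) = _
      rw [phi_lower, blk_x0, hneg]
      ext i j
      fin_cases i <;> fin_cases j <;> simp [lower]
  have hEu := finite_Eu hq hK bE
  have hEf := finite_E hq hK bE
  obtain ⟨e1, he1⟩ : ∃ e1 : Eˣ, e1 ≠ 1 := by
    haveI : Nontrivial Eˣ := by
      rw [← Finite.one_lt_card_iff_nontrivial, Nat.card_units, card_E hq hK bE, h2]
      norm_num
    exact exists_ne 1
  set M := reg hq hK bE e1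
  have hdet : (M.1 0 0 - 1) * (M.1 1 1 - 1) - M.1 0 1 * M.1 1 0 ≠ 0 := by
    have h0 : (e1 : E) - 1 ≠ 0 := sub_ne_zero.2 fun h' => he1 (Units.ext h')
    have h1 : IsUnit (Algebra.leftMulMatrix bE ((e1 : E) - 1)) :=
      (isUnit_iff_ne_zero.2 h0).map (Algebra.leftMulMatrix bE)
    rw [map_sub, map_one, Matrix.isUnit_iff_isUnit_det, isUnit_iff_ne_zero, Matrix.det_fin_two] at h1
    simpa [M, reg, Matrix.one_apply] using h1
  have hd : Matrix.GeneralLinearGroup.det (incl hq hK M) = 1 := by
    have hd' : Matrix.GeneralLinearGroup.det (incl hq hK M) ^ 2 =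
        Matrix.GeneralLinearGroup.det (incl hq hK M) := by
      refine Units.ext ?_
      rw [Units.val_pow_eq_pow_val, Matrix.GeneralLinearGroup.val_det_apply]
      have : (incl hq hK M).1.det = ((M.1.det : FF hq hK) : K) := by
        rw [Matrix.det_fin_two, Matrix.det_fin_two, incl_val, incl_val, incl_val, incl_val]
        rfl
      rw [this]
      have hfix := pow_q_FF hq hK M.1.det
      simpa only [h2] using hfix
    rw [pow_two] at hd'
    exact mul_eq_left.1 hd'
  have hblkM : blk (psiF hq hK M) =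
      !![(M.1 0 0 : K), 0, (M.1 0 1 : K); 0, 1, 0; (M.1 1 0 : K), 0, (M.1 1 1 : K)] := by
    have e' : psiF hq hK M = phi K (toSL (incl hq hK M)) := by
      rw [psiF, MonoidHom.comp_apply, psi_apply, hd, map_one, one_mul]
    have eT : (toSL (incl hq hK M)).1 = (incl hq hK M).1 := by
      simp only [toSL, hd]
      rw [show dg (1 : Kˣ) = 1 from Units.ext (by simp [dg, Matrix.one_fin_two]), inv_one, one_mul]
    rw [e', hpsi, eT]
    simp only [incl_val]
  have hgM := congrArg blk (hC e1).eq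
  rw [blk_mul _ _ (hc s0), blk_mul _ _ (show Commute (sigS q s0) (psiF hq hK M) from sigS_commute_psi q s0 _), hblkM] at hgM
  have h01 := congrFun (congrFun hgM 0) 1
  have h21 := congrFun (congrFun hgM 2) 1
  have h10 := congrFun (congrFun hgM 1) 0
  have h12 := congrFun (congrFun hgM 1) 2
  simp [Matrix.mul_apply, Fin.sum_univ_three] at h01 h21 h10 h12
  set A := blk g
  set d : K := ((M.1 0 0 : K) - 1) * ((M.1 1 1 : K) - 1) - (M.1 0 1 : K) * (M.1 1 0 : K)
  have hd0 : d ≠ 0 := fun h' => hdet (Subtype.ext h')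
  have z01 : A 0 1 = 0 := (mul_eq_zero.1 (show d * A 0 1 = 0 by
    simp only [d]; linear_combination (1 - (M.1 1 1 : K)) * h01 + (M.1 0 1 : K) * h21)).resolve_left hd0
  have z21 : A 2 1 = 0 := (mul_eq_zero.1 (show d * A 2 1 = 0 by
    simp only [d]; linear_combination (1 - (M.1 0 0 : K)) * h21 + (M.1 1 0 : K) * h01)).resolve_left hd0
  have z10 : A 1 0 = 0 := (mul_eq_zero.1 (show d * A 1 0 = 0 by
    simp only [d]; linear_combination ((M.1 1 1 : K) - 1) * h10 - (M.1 1 0 : K) * h12)).resolve_left hd0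
  have z12 : A 1 2 = 0 := (mul_eq_zero.1 (show d * A 1 2 = 0 by
    simp only [d]; linear_combination ((M.1 0 0 : K) - 1) * h12 - (M.1 0 1 : K) * h10)).resolve_left hd0
  have hm : ∀ j, m j ≠ 0 := fun j => mul_ne_zero (Units.ne_zero _) (hcw _)
  have hid : p 0 = 0 → p 1 = 1 → c0 = 0 ∧ -c1 = 0 := by
    intro p0 p1
    have e19 : act chevD4 w 19 = 19 := by have := hp 0; rw [p0] at this; exact this.symm
    have e18 : act chevD4 w 18 = 18 := by have := hp 1; rw [p1] at this; exact this.symm
    rcases w_cases hq hK hwc e18 (Or.inl e19) with ⟨-, hall⟩ | ⟨h6, -⟩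
    · have h1 : blk v = 1 := by rw [invSet_empty hall hv, blk_one]
      rw [hvb] at h1
      exact ⟨by simpa using congrFun (congrFun h1 0) 1, by simpa using congrFun (congrFun h1 1) 2⟩
    · omega
  obtain ⟨p1, za0, za1, zc0, zc1⟩ := levi_cases hm hpinj hA z01 z10 z12 z21 hid
  rw [neg_eq_zero] at za1 zc1
  have hx1 : ∀ r ∈ [14, 22], xGL chevD4 K r (0 : K) = 1 := fun r hr => S.x_zero (small_pos r (by
    simp only [List.mem_cons, List.not_mem_nil, or_false] at hr ⊢; omega)).1
  have hu' : u = xGL chevD4 K 23 a2 := by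
    rw [hua, za0, za1, hx1 14 (by simp), hx1 22 (by simp), one_mul, one_mul]
  have hv' : v = xGL chevD4 K 23 c2 := by
    rw [hva, zc0, zc1, hx1 14 (by simp), hx1 22 (by simp), one_mul, one_mul]
  refine ⟨a2, c2, _, v, w, hh, hv, hv', hu' ▸ e, hwc, hvf, ?_, ?_⟩
  · have := hp 1
    rw [p1] at this
    exact this.symm
  · have h0 : p 0 ≠ 1 := fun h' => absurd (hpinj (h'.trans p1.symm)) (by decide)
    have := hp 0
    obtain h' | h' : p 0 = 0 ∨ p 0 = 2 := by revert h0; generalize p 0 = x; revert x; decide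
    · exact Or.inl (by rw [h'] at this; exact this.symm)
    · exact Or.inr (by rw [h'] at this; exact this.symm)

/-- A centralizing element lies in the torus. -/
theorem centralizer_range {E : Type*} [Field E] [Algebra (FF hq hK) E]
    (bE : Module.Basis (Fin 2) (FF hq hK) E) {g : GL chevD4.Idx K} (hg : g ∈ twistedD4 K q)
    (hT : ∀ t ∈ (Phi hq hK bE).range, Commute g t) : g ∈ (Phi hq hK bE).range := by
  have hS' : ∀ s : Kˣ, Commute (sigS q s) g := fun s =>
    (hT _ ⟨(s, 1), by rw [Phi_apply, map_one, map_one, mul_one]⟩).symm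
  have hC : ∀ e : Eˣ, Commute g (psiF hq hK (reg hq hK bE e)) := fun e =>
    hT _ ⟨(1, e), by rw [Phi_apply, map_one, one_mul]⟩
  obtain ⟨a, b, h, v, w, hh, hv, hvb, e, hwc, hvf, h18, h19⟩ : TopShape hq hK g := by
    by_cases h2 : q = 2
    · exact topShape_of_two hq hK h2 bE hg hS' hC
    · exact topShape_of_large hq hK (by have := hq.one_lt; omega) hg hS'
  obtain ⟨s, M, rfl⟩ := top_levi hq hK hwc h18 h19 hg hh hv hvb hvf e
  have hM : ∀ e : Eˣ, Commute M (reg hq hK bE e) := by
    intro e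
    refine psiF_injective hq hK ?_
    rw [map_mul, map_mul]
    have h1 : Commute (sigS q s * psiF hq hK M) (psiF hq hK (reg hq hK bE e)) := hC e
    have h2 : Commute (sigS q s) (psiF hq hK (reg hq hK bE e)) := sigS_commute_psi q s _
    have h3 := h2.inv_left.mul_left h1
    rwa [inv_mul_cancel_left] at h3
  obtain ⟨e', rfl⟩ := exists_of_commute hq hK bE M hM
  exact ⟨(s, e'), Phi_apply hq hK bE _⟩

include hq hK in
/-- ³D₄(q) has a cyclic self-centralizing subgroup of order `(q³ - 1)(q + 1)`. -/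
theorem exists_selfCentralizing :
    ∃ H : Subgroup ↥(twistedD4 K q), IsCyclic ↥H ∧ Nat.card ↥H = (q ^ 3 - 1) * (q + 1) ∧
      Subgroup.centralizer (H : Set ↥(twistedD4 K q)) = H := by
  obtain ⟨p, hp⟩ := CharP.exists (FF hq hK)
  haveI : Fact p.Prime := ⟨CharP.char_is_prime (FF hq hK) p⟩
  let bE : Module.Basis (Fin 2) (FF hq hK) (FiniteField.Extension (FF hq hK) p 2) :=
    Module.finBasisOfFinrankEq _ _ (FiniteField.finrank_extension (FF hq hK) p 2)
  set T := (Phi hq hK bE).range
  let eT := Subgroup.subgroupOfEquivOfLe (Phi_range_le hq hK bE)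
  haveI hcyc : IsCyclic ↥(T.subgroupOf (twistedD4 K q)) :=
    eT.symm.isCyclic.1 (range_cyclic hq hK bE)
  refine ⟨T.subgroupOf (twistedD4 K q), hcyc,
    (Nat.card_congr eT.toEquiv).trans (card_range hq hK bE), le_antisymm ?_ ?_⟩
  · intro g hg
    rw [Subgroup.mem_subgroupOf]
    refine centralizer_range hq hK bE g.2 fun t ht' => ?_
    have := Subgroup.mem_centralizer_iff.1 hg ⟨t, Phi_range_le hq hK bE ht'⟩
      (Subgroup.mem_subgroupOf.2 ht')
    exact (congrArg Subtype.val this).symm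
  · intro g hg
    rw [Subgroup.mem_centralizer_iff]
    intro x hx
    haveI := hcyc
    exact congrArg Subtype.val
      ((IsCyclic.commutative (α := ↥(T.subgroupOf (twistedD4 K q)))).is_comm.comm ⟨x, hx⟩ ⟨g, hg⟩)

end Cfsg.Agent.ChevTw.D4Torus
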